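import Cfsg.Agent.Lib.Mult.Glue
import Cfsg.Agent.Lib.Grp.F42.Main
import Cfsg.Agent.Lib.Mult.F42.P2
import Cfsg.Agent.Lib.Mult.F42.P3
import Cfsg.Agent.Lib.Mult.F42.P5
import Cfsg.Agent.Lib.Mult.F42.P7

set_option autoImplicit false
set_option maxRecDepth 100000
set_option Elab.async false

namespace Cfsg.Agent.Mult.F42

open Cfsg.Agent.CG Cfsg.Agent.CG.F42

theorem pb13 : PB PG 13 [] :=
  pb_cyc base card (a := 0) (d := 1) (v := [17,1]) (by norm_num) (by decide +kernel)

theorem pb17 : PB PG 17 [] :=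
  pb_cyc base card (a := 0) (d := 1) (v := [3]) (by norm_num) (by decide +kernel)

theorem mb : MB PG [2] :=
  PBs.mb (PBs.cons pb2 (PBs.cons pb3 (PBs.cons pb5 (PBs.cons pb7 (PBs.cons pb13 (PBs.cons pb17 PBs.nil)))))) card
    (primes_of_eq_prod (ps := [2,3,5,7,13,17]) (es := [24,6,2,2,1,1]) (by simp only [List.forall_mem_cons]; norm_num) (by decide +kernel))

end Cfsg.Agent.Mult.F42
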